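import Mathlib
import Cfsg.Agent.Lib.Helper40.OTS.Defs
import Cfsg.Agent.Lib.Helper40.SympWall
import Cfsg.Agent.S0750

/-!
# OTS (S5972): `[OW]` - orthogonal Wall for isometries of odd order prime to the characteristic
-/

set_option autoImplicit false
set_option linter.unusedSectionVars false

namespace Cfsg.Agent.Lib.Helper11.OTS

open Matrix Module Polynomial Cfsg.Agent.Lib.Helper40.RingNorm Cfsg.Agent.Lib.Helper40.SympWall
open Cfsg.Agent.Lib.Helper40.OTS

universe u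

section gadj

variable {F : Type*} [Field F] {ι : Type*} [Fintype ι] [DecidableEq ι]

/-- The adjoint with respect to the form with Gram matrix `M` (with inverse `M'`). -/
def gadj (M M' : Matrix ι ι F) (c : Matrix ι ι F) : Matrix ι ι F := M' * cᵀ * M

theorem gadj_mul (M M' : Matrix ι ι F) (h : M * M' = 1) (a b : Matrix ι ι F) :
    gadj M M' (a * b) = gadj M M' b * gadj M M' a := by
  unfold gadj
  rw [transpose_mul]
  calc M' * (bᵀ * aᵀ) * M = M' * bᵀ * 1 * aᵀ * M := by simp only [mul_one, mul_assoc]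
    _ = M' * bᵀ * M * (M' * aᵀ * M) := by rw [← h]; simp only [mul_assoc]

theorem gadj_one (M M' : Matrix ι ι F) (h' : M' * M = 1) : gadj M M' 1 = 1 := by
  unfold gadj
  rw [transpose_one, mul_one, h']

theorem gadj_add (M M' : Matrix ι ι F) (a b : Matrix ι ι F) :
    gadj M M' (a + b) = gadj M M' a + gadj M M' b := by
  unfold gadj
  rw [transpose_add, mul_add, add_mul]

theorem gadj_sub (M M' : Matrix ι ι F) (a b : Matrix ι ι F) :
    gadj M M' (a - b) = gadj M M' a - gadj M M' b := by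
  unfold gadj
  rw [transpose_sub, mul_sub, sub_mul]

theorem gadj_gadj (M M' : Matrix ι ι F) (h' : M' * M = 1) (hMt : Mᵀ = M)
    (hM't : M'ᵀ = M') (a : Matrix ι ι F) : gadj M M' (gadj M M' a) = a := by
  unfold gadj
  rw [transpose_mul, transpose_mul, transpose_transpose, hMt, hM't]
  calc M' * (M * (a * M')) * M = (M' * M) * a * (M' * M) := by simp only [mul_assoc]
    _ = a := by rw [h', one_mul, mul_one]

theorem gadj_form (M M' : Matrix ι ι F) (h : M * M' = 1) (a : Matrix ι ι F) (v w : ι → F) :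
    (a *ᵥ v) ⬝ᵥ M *ᵥ w = v ⬝ᵥ M *ᵥ (gadj M M' a *ᵥ w) := by
  have e : M * gadj M M' a = aᵀ * M := by
    unfold gadj
    rw [← mul_assoc, ← mul_assoc, h, one_mul]
  rw [Matrix.mulVec_mulVec, e, ← Matrix.mulVec_mulVec, Matrix.dotProduct_mulVec v,
    Matrix.vecMul_transpose]

theorem mat_ext {A B : Matrix ι ι F} (h : ∀ w, A *ᵥ w = B *ᵥ w) : A = B := by
  apply Matrix.toLin'.injective
  apply LinearMap.ext
  intro w
  rw [Matrix.toLin'_apply, Matrix.toLin'_apply]
  exact h w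

end gadj

section core

variable {F : Type*} [Field F] [Finite F] {ι : Type*} [Fintype ι] [DecidableEq ι]

theorem smul_mem_bicomm' {S : Set (Matrix ι ι F)} (c : F)
    {a : Matrix ι ι F} (ha : a ∈ bicomm S) : c • a ∈ bicomm S := by
  rw [mem_bicomm] at ha ⊢
  intro d hd
  rw [Matrix.mul_smul, Matrix.smul_mul, ha d hd]

/-- The algebraic core: for an isometry `g` of odd order prime to the characteristic and a
self-adjoint unit `s` commuting with `g`, there is a unit `u` commuting with `g` with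
`adj u * s * u = 1` on the part `ε` of the space where `g` has no fixed points. -/
theorem ow_core (adj : Matrix ι ι F → Matrix ι ι F)
    (adj_mul : ∀ a b, adj (a * b) = adj b * adj a) (adj_one : adj 1 = 1)
    (adj_add : ∀ a b, adj (a + b) = adj a + adj b) (adj_adj : ∀ a, adj (adj a) = a)
    (h2 : (2 : F) ≠ 0)
    (g s s' : Matrix ι ι F) (hg : adj g * g = 1)
    (k : ℕ) (hkodd : Odd k) (hk : (k : F) ≠ 0) (hgk : g ^ k = 1) (hss' : s * s' = 1)
    (hs's : s' * s = 1) (hadjs : adj s = s) (hgs : g * s = s * g) :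
    ∃ ε ep u u' : Matrix ι ι F, ε * ε = ε ∧ ep * ep = ep ∧ ε * ep = 0 ∧ ep * ε = 0 ∧
      ε + ep = 1 ∧ adj ε = ε ∧ adj ep = ep ∧ g * ε = ε * g ∧ g * ep = ep ∧ g * u = u * g ∧
      u * u' = 1 ∧ u' * u = 1 ∧ adj u * s * u * ε = ε := by
  classical
  have hg' : g * adj g = 1 := mul_eq_one_comm.mp hg
  have adj_zero : adj 0 = 0 := by
    have := adj_add 0 0
    rw [add_zero] at this
    exact left_eq_add.mp this
  have hadjs' : adj s' = s' := by
    have h1 : adj s' * s = 1 := by rw [← hadjs, ← adj_mul, hss', adj_one]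
    calc adj s' = adj s' * (s * s') := by rw [hss', mul_one]
      _ = s' := by rw [← mul_assoc, h1, one_mul]
  obtain ⟨S, hS⟩ : ∃ S : Set (Matrix ι ι F), S = {g, s} := ⟨_, rfl⟩
  have hmemS : ∀ x ∈ S, x = g ∨ x = s := by
    intro x hx
    rw [hS] at hx
    simpa using hx
  have hgS : g ∈ S := by rw [hS]; simp
  have hsS : s ∈ S := by rw [hS]; simp
  have hScomm : ∀ x ∈ S, ∀ y ∈ S, x * y = y * x := by
    intro x hx y hy
    rcases hmemS x hx with h | h <;> rcases hmemS y hy with h' | h' <;> rw [h, h']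
    · exact hgs
    · exact hgs.symm
  have hRc := bicomm_comm hScomm
  have hgR : g ∈ bicomm S := mem_bicomm_of_mem hgS
  have hsR : s ∈ bicomm S := mem_bicomm_of_mem hsS
  have hs'R : s' ∈ bicomm S := inv_mem_bicomm hsR hss' hs's
  have hτR : ∀ a ∈ bicomm S, adj a ∈ bicomm S := by
    intro a ha
    refine tau_mem_bicomm adj adj_mul ?_ ha
    intro d hd
    refine ⟨adj d, ?_, adj_adj d⟩
    intro x hx
    rcases hmemS x hx with h | h
    · rw [h]
      have h1 : g * d = d * g := hd g hgS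
      have h2 : adj d * adj g = adj g * adj d := by rw [← adj_mul, ← adj_mul, h1]
      calc g * adj d = g * adj d * (adj g * g) := by rw [hg, mul_one]
        _ = g * (adj d * adj g) * g := by simp only [mul_assoc]
        _ = g * (adj g * adj d) * g := by rw [h2]
        _ = (g * adj g) * adj d * g := by simp only [mul_assoc]
        _ = adj d * g := by rw [hg', one_mul]
    · rw [h]
      have h1 : s * d = d * s := hd s hsS
      have h2 : adj d * adj s = adj s * adj d := by rw [← adj_mul, ← adj_mul, h1]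
      rw [hadjs] at h2
      exact h2.symm
  let _ : CommRing (bicomm S) := commRingOfComm (bicomm S) hRc
  let τ' : bicomm S →+* bicomm S :=
    { toFun := fun a => ⟨adj a.1, hτR a.1 a.2⟩
      map_one' := Subtype.ext adj_one
      map_mul' := fun a b => Subtype.ext (by
        show adj (a.1 * b.1) = adj a.1 * adj b.1
        rw [adj_mul]; exact hRc _ (hτR _ b.2) _ (hτR _ a.2))
      map_zero' := Subtype.ext adj_zero
      map_add' := fun a b => Subtype.ext (adj_add a.1 b.1) }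
  have hτ' : ∀ x : bicomm S, τ' (τ' x) = x := fun x => Subtype.ext (adj_adj x.1)
  have H1 : ∀ (N : ℕ) (e : bicomm S), ((⟨g, hgR⟩ : bicomm S) * ⟨g, hgR⟩ - 1) ^ N * e = 0 →
      ((⟨g, hgR⟩ : bicomm S) * ⟨g, hgR⟩ - 1) * e = 0 := by
    intro N e h
    have h' : (g * g - 1) ^ N * e.1 = 0 := congrArg Subtype.val h
    apply Subtype.ext
    show (g * g - 1) * e.1 = 0
    rcases Nat.eq_zero_or_pos N with rfl | hN
    · rw [pow_zero, one_mul] at h'
      rw [h', mul_zero]
    · have h3 := aeval_root_of_pow g e.1 k hk hgk (X ^ 2 - 1) N hN.ne'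
        (by simpa [pow_two] using h')
      simpa [pow_two] using h3
  have H2 : ∀ (N : ℕ) (e : bicomm S), ((⟨g, hgR⟩ : bicomm S) - 1) ^ N * e = 0 →
      ((⟨g, hgR⟩ : bicomm S) - 1) * e = 0 := by
    intro N e h
    have h' : (g - 1) ^ N * e.1 = 0 := congrArg Subtype.val h
    apply Subtype.ext
    show (g - 1) * e.1 = 0
    rcases Nat.eq_zero_or_pos N with rfl | hN
    · rw [pow_zero, one_mul] at h'
      rw [h', mul_zero]
    · have h3 := aeval_root_of_pow g e.1 k hk hgk (X - 1) N hN.ne'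
        (by simpa using h')
      simpa using h3
  have h2' : (1 : bicomm S) + 1 = 0 ∨ ∃ h : bicomm S, h + h = 1 := by
    right
    refine ⟨⟨(2⁻¹ : F) • (1 : Matrix ι ι F), smul_mem_bicomm' _ (bicomm S).one_mem⟩, ?_⟩
    apply Subtype.ext
    show (2⁻¹ : F) • (1 : Matrix ι ι F) + (2⁻¹ : F) • 1 = 1
    rw [← add_smul, ← two_mul, mul_inv_cancel₀ h2, one_smul]
  obtain ⟨ε, δ', ep, em, hεε, hτε, hδ, hpp, hτp, hgp, hmm, hτm, hgm, hεp, hεm, hpm, hsum⟩ :=
    comm_decomp τ' hτ' ⟨g, hgR⟩ ⟨adj g, hτR g hgR⟩ (Subtype.ext hg') rfl H1 H2 h2'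
  -- `em = 0`
  have hgm' : g * em.1 = -em.1 := congrArg Subtype.val hgm
  have hpow : ∀ n : ℕ, g ^ n * em.1 = (-1 : Matrix ι ι F) ^ n * em.1 := by
    intro n
    induction n with
    | zero => simp
    | succ n ih =>
      rw [pow_succ, mul_assoc, hgm', mul_neg, ih, pow_succ, mul_assoc, neg_one_mul, mul_neg]
  have hem0 : em = 0 := by
    apply Subtype.ext
    show em.1 = 0
    have h1 := hpow k
    rw [hgk, one_mul, hkodd.neg_one_pow, neg_one_mul] at h1
    have h3 : (2 : F) • em.1 = 0 := by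
      rw [two_smul]
      nth_rewrite 1 [h1]
      exact neg_add_cancel _
    rcases smul_eq_zero.mp h3 with h | h
    · exact absurd h h2
    · exact h
  have hsum1 : ε + ep = 1 := by
    rw [hem0, add_zero] at hsum
    exact hsum
  -- the norm equation on `ε`
  obtain ⟨Sr, hSr⟩ : ∃ Sr : bicomm S, Sr = ⟨s, hsR⟩ := ⟨_, rfl⟩
  obtain ⟨Sr', hSr'⟩ : ∃ Sr' : bicomm S, Sr' = ⟨s', hs'R⟩ := ⟨_, rfl⟩
  obtain ⟨Gr, hGr⟩ : ∃ Gr : bicomm S, Gr = ⟨g, hgR⟩ := ⟨_, rfl⟩
  have hSS' : Sr * Sr' = 1 := by rw [hSr, hSr']; exact Subtype.ext hss'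
  have hS'S : Sr' * Sr = 1 := by rw [mul_comm]; exact hSS'
  have hτS' : τ' Sr' = Sr' := by rw [hSr']; exact Subtype.ext hadjs'
  rw [← hGr] at hδ hgp
  obtain ⟨U₂, hU₂⟩ := norm_surj_corner τ' hτ' ε Gr δ' hεε hτε hδ Sr' Sr hS'S hτS'
  obtain ⟨U, hU⟩ : ∃ U : bicomm S, U = U₂ * ε + ep := ⟨_, rfl⟩
  have hτU : τ' U = τ' U₂ * ε + ep := by
    rw [hU, map_add, map_mul, hτε, hτp]
  have e1 : U * ε = U₂ * ε := by
    rw [hU]
    linear_combination U₂ * hεε + hεp
  have e2 : τ' U * (U₂ * ε) = Sr' * ε := by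
    rw [hτU]
    linear_combination ε * hU₂ + Sr' * hεε + U₂ * hεp
  have e3 : τ' U * U = Sr' * ε + ep := by
    rw [hτU, hU]
    linear_combination ε * hU₂ + Sr' * hεε + (τ' U₂ + U₂) * hεp + hpp
  have e4 : τ' U * Sr * U * ε = ε := by
    linear_combination (τ' U * Sr) * e1 + Sr * e2 + ε * hSS'
  have e5 : U * (τ' U * (Sr * ε + ep)) = 1 := by
    linear_combination (Sr * ε + ep) * e3 + (Sr * Sr') * hεε + ε * hSS' + (Sr' + Sr) * hεp
      + hpp + hsum1
  have e6 : (τ' U * (Sr * ε + ep)) * U = 1 := by rw [mul_comm]; exact e5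
  have e7 : ep * ε = 0 := by rw [mul_comm]; exact hεp
  have e8 : Gr * ε = ε * Gr := mul_comm _ _
  have e9 : Gr * U = U * Gr := mul_comm _ _
  refine ⟨ε.1, ep.1, U.1, (τ' U * (Sr * ε + ep)).1, congrArg Subtype.val hεε,
    congrArg Subtype.val hpp, congrArg Subtype.val hεp, congrArg Subtype.val e7,
    congrArg Subtype.val hsum1, congrArg Subtype.val hτε, congrArg Subtype.val hτp, ?_, ?_, ?_,
    congrArg Subtype.val e5, congrArg Subtype.val e6, ?_⟩
  · have := congrArg Subtype.val e8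
    rw [hGr] at this
    exact this
  · have := congrArg Subtype.val hgp
    rw [hGr] at this
    exact this
  · have := congrArg Subtype.val e9
    rw [hGr] at this
    exact this
  · have := congrArg Subtype.val e4
    rw [hSr] at this
    exact this

end core

/-- **[OW]** orthogonal Wall for odd order. -/
theorem pkgOW : PkgOW.{u} := by
  intro F _ _ ι _ _ Q h2 hQ x y k hkodd hk hxk hyk hxQ hyQ hchar
  classical
  obtain ⟨B, hBdef⟩ : ∃ B : LinearMap.BilinForm F (ι → F), B = QuadraticMap.polarBilin Q :=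
    ⟨_, rfl⟩
  have hBpolar : ∀ v w, B v w = Q (v + w) - Q v - Q w := by
    intro v w
    rw [hBdef]
    rfl
  have hBself : ∀ v, B v v = 2 * Q v := by
    intro v
    rw [hBpolar, ← two_smul F v, QuadraticMap.map_smul, smul_eq_mul]
    ring
  obtain ⟨M, hM⟩ : ∃ M : Matrix ι ι F, M = LinearMap.BilinForm.toMatrix' B := ⟨_, rfl⟩
  have hBM : ∀ v w, B v w = v ⬝ᵥ M *ᵥ w := by
    intro v w
    rw [hM, ← Matrix.toBilin'_apply', Matrix.toBilin'_toMatrix']
  have hdet : M.det ≠ 0 := by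
    rw [hM, ← Matrix.nondegenerate_iff_det_ne_zero,
      LinearMap.BilinForm.nondegenerate_toMatrix'_iff, hBdef]
    exact hQ
  have hMt : Mᵀ = M := by
    ext i j
    rw [Matrix.transpose_apply, hM, LinearMap.BilinForm.toMatrix'_apply,
      LinearMap.BilinForm.toMatrix'_apply, hBpolar, hBpolar, add_comm]
    ring
  have hMM' : M * M⁻¹ = 1 := Matrix.mul_nonsing_inv M (isUnit_iff_ne_zero.mpr hdet)
  have hM'M : M⁻¹ * M = 1 := Matrix.nonsing_inv_mul M (isUnit_iff_ne_zero.mpr hdet)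
  have hM't : (M⁻¹)ᵀ = M⁻¹ := by rw [Matrix.transpose_nonsing_inv, hMt]
  obtain ⟨adj, hadj⟩ : ∃ adj : Matrix ι ι F → Matrix ι ι F, adj = gadj M M⁻¹ := ⟨_, rfl⟩
  have adj_mul : ∀ a b, adj (a * b) = adj b * adj a := by
    intro a b
    rw [hadj]
    exact gadj_mul M M⁻¹ hMM' a b
  have adj_one : adj 1 = 1 := by
    rw [hadj]
    exact gadj_one M M⁻¹ hM'M
  have adj_add : ∀ a b, adj (a + b) = adj a + adj b := by
    intro a b
    rw [hadj]
    exact gadj_add M M⁻¹ a b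
  have adj_sub : ∀ a b, adj (a - b) = adj a - adj b := by
    intro a b
    rw [hadj]
    exact gadj_sub M M⁻¹ a b
  have adj_adj : ∀ a, adj (adj a) = a := by
    intro a
    rw [hadj]
    exact gadj_gadj M M⁻¹ hM'M hMt hM't a
  have hadjB : ∀ (a : Matrix ι ι F) (v w : ι → F), B (a *ᵥ v) w = B v (adj a *ᵥ w) := by
    intro a v w
    rw [hBM, hBM, hadj]
    exact gadj_form M M⁻¹ hMM' a v w
  have hndL : ∀ v, (∀ w, B v w = 0) → v = 0 := by
    intro v hv
    have h1 := hQ.1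
    rw [← hBdef] at h1
    exact h1 v hv
  have hndR : ∀ w, (∀ v, B v w = 0) → w = 0 := by
    intro w hw
    have h1 := hQ.2
    rw [← hBdef] at h1
    exact h1 w hw
  -- isometries
  have hiso : ∀ z : Matrix ι ι F, (∀ v : ι → F, Q (z *ᵥ v) = Q v) → adj z * z = 1 := by
    intro z hz
    have hzB : ∀ v w, B (z *ᵥ v) (z *ᵥ w) = B v w := by
      intro v w
      rw [hBpolar, hBpolar, ← Matrix.mulVec_add, hz, hz, hz]
    apply mat_ext
    intro w
    rw [Matrix.one_mulVec, ← sub_eq_zero]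
    apply hndR
    intro v
    rw [map_sub, ← Matrix.mulVec_mulVec, ← hadjB, hzB, sub_self]
  have hx1 : adj x * x = 1 := hiso x hxQ
  have hy1 : adj y * y = 1 := hiso y hyQ
  have hx1' : x * adj x = 1 := mul_eq_one_comm.mp hx1
  have hy1' : y * adj y = 1 := mul_eq_one_comm.mp hy1
  -- conjugacy in `GL`
  have hsx := isSemisimple_of_pow_eq_one' x k hk hxk
  have hsy := isSemisimple_of_pow_eq_one' y k hk hyk
  obtain ⟨e, he⟩ := Cfsg.Agent.Lib.Helper40.exists_equiv_of_charpoly_eq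
    (Module.finrank F (ι → F)) (ι → F) (ι → F)
    (Matrix.toLin' x) (Matrix.toLin' y) rfl hsx hsy
    (by rw [Matrix.charpoly_toLin', Matrix.charpoly_toLin', hchar])
  obtain ⟨P, hP⟩ : ∃ P : Matrix ι ι F,
      P = LinearMap.toMatrix' (e : (ι → F) →ₗ[F] (ι → F)) := ⟨_, rfl⟩
  obtain ⟨P', hP'⟩ : ∃ P' : Matrix ι ι F,
      P' = LinearMap.toMatrix' (e.symm : (ι → F) →ₗ[F] (ι → F)) := ⟨_, rfl⟩
  have hPP' : P * P' = 1 := by
    rw [hP, hP', ← LinearMap.toMatrix'_comp]
    simp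
  have hP'P : P' * P = 1 := by
    rw [hP, hP', ← LinearMap.toMatrix'_comp]
    simp
  have hPx : P * x = y * P := by
    apply Matrix.toLin'.injective
    apply LinearMap.ext
    intro v
    rw [hP]
    simp only [Matrix.toLin'_mul, Matrix.toLin'_toMatrix', LinearMap.comp_apply]
    exact he v
  obtain ⟨s, hs⟩ : ∃ s : Matrix ι ι F, s = adj P * P := ⟨_, rfl⟩
  have hadjs : adj s = s := by rw [hs, adj_mul, adj_adj]
  have hss' : s * (P' * adj P') = 1 := by
    rw [hs]
    calc adj P * P * (P' * adj P') = adj P * (P * P') * adj P' := by simp only [mul_assoc]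
      _ = adj (P' * P) := by rw [hPP', mul_one, adj_mul]
      _ = 1 := by rw [hP'P, adj_one]
  have hs's : (P' * adj P') * s = 1 := mul_eq_one_comm.mp hss'
  have h1 : adj x * adj P = adj P * adj y := by rw [← adj_mul, ← adj_mul, hPx]
  have h2' : adj P * y = x * adj P := by
    calc adj P * y = (x * adj x) * adj P * y := by rw [hx1', one_mul]
      _ = x * (adj x * adj P) * y := by simp only [mul_assoc]
      _ = x * (adj P * adj y) * y := by rw [h1]
      _ = x * adj P * (adj y * y) := by simp only [mul_assoc]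
      _ = x * adj P := by rw [hy1, mul_one]
  have hgs : x * s = s * x := by
    rw [hs, ← mul_assoc, ← h2', mul_assoc, mul_assoc, hPx]
  obtain ⟨ε, ep, U, U', hεε, hpp, hεp, hpε, hsum, hτε, hτp, hxε, hxp, hxU, hUU', hU'U, hUs⟩ :=
    ow_core adj adj_mul adj_one adj_add adj_adj h2 x s (P' * adj P') hx1 k hkodd hk hxk hss' hs's
      hadjs hgs
  obtain ⟨h₀, hh₀⟩ : ∃ h₀ : Matrix ι ι F, h₀ = P * U := ⟨_, rfl⟩
  obtain ⟨h₀', hh₀'⟩ : ∃ h₀' : Matrix ι ι F, h₀' = U' * P' := ⟨_, rfl⟩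
  have h00' : h₀ * h₀' = 1 := by
    rw [hh₀, hh₀']
    calc P * U * (U' * P') = P * (U * U') * P' := by simp only [mul_assoc]
      _ = 1 := by rw [hUU', mul_one, hPP']
  have h0'0 : h₀' * h₀ = 1 := mul_eq_one_comm.mp h00'
  have h0x : h₀ * x = y * h₀ := by
    rw [hh₀, mul_assoc, ← hxU, ← mul_assoc, hPx, mul_assoc]
  have h0ε : adj h₀ * h₀ * ε = ε := by
    rw [hh₀, adj_mul]
    calc adj U * adj P * (P * U) * ε = adj U * (adj P * P) * U * ε := by simp only [mul_assoc]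
      _ = ε := by rw [← hs, hUs]
  -- the isometry on `X = range ε`
  obtain ⟨E₀, hE₀⟩ : ∃ E₀ : (ι → F) ≃ₗ[F] (ι → F), ∀ v, E₀ v = h₀ *ᵥ v := by
    refine ⟨LinearEquiv.ofLinear (Matrix.toLin' h₀) (Matrix.toLin' h₀') ?_ ?_, fun v => ?_⟩
    · rw [← Matrix.toLin'_mul, h00', Matrix.toLin'_one]
    · rw [← Matrix.toLin'_mul, h0'0, Matrix.toLin'_one]
    · rw [LinearEquiv.ofLinear_apply, Matrix.toLin'_apply]
  obtain ⟨X, hX⟩ : ∃ X : Submodule F (ι → F), X = LinearMap.range (Matrix.toLin' ε) := ⟨_, rfl⟩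
  have hmemX : ∀ v, ε *ᵥ v ∈ X := by
    intro v
    rw [hX]
    exact ⟨v, Matrix.toLin'_apply _ _⟩
  have hXε : ∀ v ∈ X, ε *ᵥ v = v := by
    intro v hv
    rw [hX] at hv
    obtain ⟨w, rfl⟩ := hv
    rw [Matrix.toLin'_apply, Matrix.mulVec_mulVec, hεε]
  have hφ : ∀ v : X, Q ((E₀.submoduleMap X v : ι → F)) = Q (v : ι → F) := by
    intro v
    rw [LinearEquiv.submoduleMap_apply, hE₀]
    have h3 : B (h₀ *ᵥ (v : ι → F)) (h₀ *ᵥ (v : ι → F)) = B (v : ι → F) (v : ι → F) := by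
      rw [hadjB, Matrix.mulVec_mulVec]
      nth_rewrite 2 [← hXε v.1 v.2]
      rw [Matrix.mulVec_mulVec, h0ε, hXε v.1 v.2]
    rw [hBself, hBself] at h3
    exact mul_left_cancel₀ h2 h3
  obtain ⟨G, hGQ, hGφ⟩ := Cfsg.Agent.S0750.result Q hQ X _ (E₀.submoduleMap X) hφ
  have hGB : ∀ v w, B (G v) (G w) = B v w := by
    intro v w
    rw [hBpolar, hBpolar, ← map_add, hGQ, hGQ, hGQ]
  have hGε : ∀ v, G (ε *ᵥ v) = h₀ *ᵥ (ε *ᵥ v) := by
    intro v
    have h3 := hGφ ⟨ε *ᵥ v, hmemX v⟩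
    rw [LinearEquiv.submoduleMap_apply, hE₀] at h3
    exact h3
  -- `G` intertwines `x` and `y` on `X`
  have hpart1 : ∀ v, G (x *ᵥ (ε *ᵥ v)) = y *ᵥ G (ε *ᵥ v) := by
    intro v
    rw [Matrix.mulVec_mulVec, hxε, ← Matrix.mulVec_mulVec, hGε, hGε]
    simp only [Matrix.mulVec_mulVec]
    have e1 : h₀ * (ε * x) = y * (h₀ * ε) := by
      rw [← hxε, ← mul_assoc, h0x, mul_assoc]
    rw [e1]
  -- `y` is trivial on `G (X^⊥)`
  have hym : h₀ * ε * (x - 1) * h₀' = y - 1 := by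
    have e1 : ε * (x - 1) = x - 1 := by
      have e2 : (x - 1) * ep = 0 := by rw [sub_mul, one_mul, hxp, sub_self]
      calc ε * (x - 1) = (x - 1) * ε := by rw [mul_sub, sub_mul, hxε, mul_one, one_mul]
        _ = (x - 1) * ε + (x - 1) * ep := by rw [e2, add_zero]
        _ = x - 1 := by rw [← mul_add, hsum, mul_one]
    rw [mul_assoc h₀, e1, mul_sub, mul_one, h0x, sub_mul, mul_assoc, h00', mul_one]
  have hpart2 : ∀ v, y *ᵥ G (ep *ᵥ v) = G (ep *ᵥ v) := by
    intro v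
    obtain ⟨z, hz⟩ : ∃ z : ι → F, z = G (ep *ᵥ v) := ⟨_, rfl⟩
    rw [← hz]
    have h3 : ∀ t, B z ((y - 1) *ᵥ t) = 0 := by
      intro t
      have e1 : (y - 1) *ᵥ t = G (ε *ᵥ ((x - 1) *ᵥ (h₀' *ᵥ t))) := by
        rw [hGε]
        simp only [Matrix.mulVec_mulVec]
        rw [← hym]
        simp only [mul_assoc]
      rw [e1, hz, hGB, hadjB, hτp, Matrix.mulVec_mulVec, hpε, Matrix.zero_mulVec, map_zero]
    have h4 : adj (y - 1) *ᵥ z = 0 := by
      apply hndL
      intro t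
      have e1 := hadjB (adj (y - 1)) z t
      rw [adj_adj] at e1
      rw [e1]
      exact h3 t
    rw [adj_sub, adj_one, Matrix.sub_mulVec, Matrix.one_mulVec, sub_eq_zero] at h4
    calc y *ᵥ z = y *ᵥ (adj y *ᵥ z) := by rw [h4]
      _ = z := by rw [Matrix.mulVec_mulVec, hy1', Matrix.one_mulVec]
  have hmain : ∀ v, G (x *ᵥ v) = y *ᵥ G v := by
    intro v
    have hv : v = ε *ᵥ v + ep *ᵥ v := by
      rw [← Matrix.add_mulVec, hsum, Matrix.one_mulVec]
    have e1 : x *ᵥ (ep *ᵥ v) = ep *ᵥ v := by rw [Matrix.mulVec_mulVec, hxp]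
    calc G (x *ᵥ v) = G (x *ᵥ (ε *ᵥ v) + x *ᵥ (ep *ᵥ v)) := by
          rw [← Matrix.mulVec_add, ← hv]
      _ = y *ᵥ G (ε *ᵥ v) + y *ᵥ G (ep *ᵥ v) := by
          rw [map_add, hpart1, e1, hpart2]
      _ = y *ᵥ G v := by
          rw [← Matrix.mulVec_add, ← map_add, ← hv]
  refine ⟨LinearMap.toMatrix' (G : (ι → F) →ₗ[F] (ι → F)),
    LinearMap.toMatrix' (G.symm : (ι → F) →ₗ[F] (ι → F)), ?_, ?_, ?_⟩
  · rw [← LinearMap.toMatrix'_comp]
    simp
  · intro v
    rw [LinearMap.toMatrix'_mulVec]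
    exact hGQ v
  · apply mat_ext
    intro w
    rw [← Matrix.mulVec_mulVec, ← Matrix.mulVec_mulVec, LinearMap.toMatrix'_mulVec,
      LinearMap.toMatrix'_mulVec]
    exact hmain w

end Cfsg.Agent.Lib.Helper11.OTS
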